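import Cfsg.Agent.Block.FirstMain

/-!
# Central characters on `x y` for `x` central in a defect group

If `y` represents a defect class with defect group `P` and `x ∈ Z(P)`, the central characters of
the block do not vanish modulo the local ideal at `x y`.
-/

namespace Cfsg.Agent.Block

open Cfsg MonoidAlgebra

variable {G : Type*} [Group G] [Fintype G] {p : ℕ}

open scoped Classical in
/-- The conjugates of `g` that centralise `P`. -/
noncomputable def centralisingClass (P : Subgroup G) (g : G) : Finset G :=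
  Finset.univ.filter fun h => IsConj g h ∧ h ∈ Subgroup.centralizer (P : Set G)

open scoped Classical in
/-- The number of conjugates of `g` centralising `P` in the coset `t P`. -/
noncomputable def cosetCount (P : Subgroup G) (g t : G) : ℕ :=
  ((centralisingClass P g).filter fun h => t⁻¹ * h ∈ P).card

theorem mem_centralisingClass {P : Subgroup G} {g h : G} :
    h ∈ centralisingClass P g ↔ IsConj g h ∧ h ∈ Subgroup.centralizer (P : Set G) := by
  classical
  simp [centralisingClass]

theorem cosetCount_conj (P : Subgroup G) (g t : G) {n : G}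
    (hn : n ∈ Subgroup.normalizer (P : Set G)) :
    cosetCount P g (n * t * n⁻¹) = cosetCount P g t := by
  classical
  unfold cosetCount
  refine Finset.card_nbij' (fun h => n⁻¹ * h * n) (fun h => n * h * n⁻¹) ?_ ?_ ?_ ?_
  · intro h hh
    simp only [Finset.mem_coe, Finset.mem_filter, mem_centralisingClass] at hh ⊢
    have e : n * (n⁻¹ * h * n) * n⁻¹ = h := by group
    have e2 : n * (t⁻¹ * (n⁻¹ * h * n)) * n⁻¹ = (n * t * n⁻¹)⁻¹ * h := by group
    refine ⟨⟨hh.1.1.trans (isConj_iff.2 ⟨n⁻¹, by simp⟩),
      (conj_mem_centralizer_iff hn _).1 (by rw [e]; exact hh.1.2)⟩,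
      (Subgroup.mem_normalizer_iff.1 hn _).2 (by rw [e2]; exact hh.2)⟩
  · intro h hh
    simp only [Finset.mem_coe, Finset.mem_filter, mem_centralisingClass] at hh ⊢
    have e2 : (n * t * n⁻¹)⁻¹ * (n * h * n⁻¹) = n * (t⁻¹ * h) * n⁻¹ := by group
    refine ⟨⟨hh.1.1.trans (isConj_iff.2 ⟨n, rfl⟩), (conj_mem_centralizer_iff hn _).2 hh.1.2⟩, ?_⟩
    rw [e2]
    exact (Subgroup.mem_normalizer_iff.1 hn _).1 hh.2
  · intro h _; simp [mul_assoc]
  · intro h _; simp [mul_assoc]

theorem cosetCount_congr (P : Subgroup G) (g : G) {t t' : G} (h : t⁻¹ * t' ∈ P) :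
    cosetCount P g t = cosetCount P g t' := by
  classical
  unfold cosetCount
  congr 1
  refine Finset.filter_congr fun x _ => ?_
  rw [show t⁻¹ * x = (t⁻¹ * t') * (t'⁻¹ * x) from by group]
  exact Subgroup.mul_mem_cancel_left P h

variable [Fact p.Prime]

theorem factorization_card_centralisingClass {P : Subgroup G} {g : G}
    (hg : IsClassDefectGroup p g P) :
    (centralisingClass P g).card ≠ 0 ∧
      (centralisingClass P g).card.factorization p =
        (Nat.card (Subgroup.normalizer (P : Set G))).factorization p -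
          (Nat.card P).factorization p := by
  classical
  haveI := Fintype.ofFinite (Subgroup.normalizer (P : Set G))
  have hgC : g ∈ Subgroup.centralizer (P : Set G) :=
    le_centralizer_singleton_iff.1 hg.le_centralizer
  let g' : Subgroup.normalizer (P : Set G) := ⟨g, Subgroup.centralizer_le_normalizer _ hgC⟩
  have hcl : (centralisingClass P g).card =
      (Subgroup.centralizer ({g'} : Set (Subgroup.normalizer (P : Set G)))).index := by
    rw [← Char.card_isConj_eq_index g', ← Finset.card_map ⟨Subtype.val, Subtype.val_injective⟩]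
    congr 1
    ext h
    simp only [mem_centralisingClass, Finset.mem_map, Finset.mem_filter, Finset.mem_univ,
      true_and, Function.Embedding.coeFn_mk]
    constructor
    · rintro ⟨hconj, hhC⟩
      obtain ⟨n, hn, rfl⟩ := hg.exists_normalizer_conj hconj hhC
      exact ⟨(⟨n, hn⟩ : Subgroup.normalizer (P : Set G)) * g' * (⟨n, hn⟩)⁻¹,
        isConj_iff.2 ⟨_, rfl⟩, rfl⟩
    · rintro ⟨h', hh', rfl⟩
      obtain ⟨n, rfl⟩ := isConj_iff.1 hh'
      exact ⟨isConj_iff.2 ⟨(n : G), rfl⟩, (conj_mem_centralizer_iff n.2 g).2 hgC⟩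
  have hne : (centralisingClass P g).card ≠ 0 := by
    rw [hcl]; exact Subgroup.index_ne_zero_of_finite
  refine ⟨hne, ?_⟩
  have hc0 : Nat.card (Subgroup.centralizer ({g'} : Set (Subgroup.normalizer (P : Set G)))) ≠ 0 :=
    Nat.card_pos.ne'
  have hcard : (Nat.card (Subgroup.centralizer
      ({g'} : Set (Subgroup.normalizer (P : Set G))))).factorization p =
      (Nat.card P).factorization p := by
    refine le_antisymm ?_ ?_
    · have h1 : Nat.card (Subgroup.centralizer ({g'} : Set (Subgroup.normalizer (P : Set G)))) ∣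
          Nat.card (Subgroup.centralizer ({g} : Set G)) := by
        rw [← Subgroup.card_map_of_injective
          (f := (Subgroup.normalizer (P : Set G)).subtype) (Subgroup.subtype_injective _)]
        exact Subgroup.card_dvd_of_le (map_centralizer_subgroupOf_le g')
      have h2 := (Nat.factorization_le_iff_dvd hc0 Nat.card_pos.ne').2 h1 p
      rw [hg.card_eq, Nat.factorization_pow, (Fact.out : p.Prime).factorization,
        Finsupp.smul_apply, Finsupp.single_eq_same, smul_eq_mul, mul_one]
      exact h2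
    · refine (Nat.factorization_le_iff_dvd Nat.card_pos.ne' hc0).2 ?_ p
      rw [← Nat.card_congr (Subgroup.subgroupOfEquivOfLe
        (H := P) (K := Subgroup.normalizer (P : Set G)) Subgroup.le_normalizer).toEquiv]
      refine Subgroup.card_dvd_of_le fun u hu => mem_centralizer_singleton.2 (Subtype.ext ?_)
      exact (hgC (u : G) hu).symm
  have h3 : (Nat.card (Subgroup.centralizer
      ({g'} : Set (Subgroup.normalizer (P : Set G))))).factorization p +
      (centralisingClass P g).card.factorization p =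
      (Nat.card (Subgroup.normalizer (P : Set G))).factorization p := by
    rw [hcl, ← Finsupp.add_apply, ← Nat.factorization_mul hc0 Subgroup.index_ne_zero_of_finite,
      Subgroup.card_mul_index]
  omega

/-- The coset sum of a Brauer image of a class sum. -/
theorem sum_coset_brauerRestr {R : Type*} [CommRing R] {P H : Subgroup G} [Fintype H]
    (hCH : Subgroup.centralizer (P : Set G) ≤ H) (g : G) (t : H)
    [DecidablePred fun x : H => t⁻¹ * x ∈ P.subgroupOf H] :
    ∑ x : H with t⁻¹ * x ∈ P.subgroupOf H, (brauerRestr P H (classSum R g)).coeff x =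
      (cosetCount P g (t : G) : R) := by
  classical
  have hcoe : ∀ x : H, (brauerRestr P H (classSum R g)).coeff x =
      if (x : G) ∈ centralisingClass P g then 1 else 0 := by
    intro x
    rw [brauerRestr, coeff_restr]
    by_cases hx : (x : G) ∈ Subgroup.centralizer (P : Set G)
    · rw [coeff_trunc_of_mem _ hx, coeff_classSum]
      exact if_congr (by simp [mem_centralisingClass, hx]) rfl rfl
    · rw [coeff_trunc_of_notMem _ hx, if_neg fun h => hx (mem_centralisingClass.1 h).2]
  simp only [hcoe]
  rw [Finset.sum_boole, cosetCount]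
  congr 1
  rw [← Finset.card_map (Function.Embedding.subtype fun x : G => x ∈ H)]
  congr 1
  ext y
  simp only [Finset.mem_map, Finset.mem_filter, Finset.mem_univ, true_and,
    Function.Embedding.coe_subtype, Subgroup.mem_subgroupOf, Subgroup.coe_mul, Subgroup.coe_inv]
  constructor
  · rintro ⟨x, ⟨hx1, hx2⟩, rfl⟩
    exact ⟨hx2, hx1⟩
  · rintro ⟨hy1, hy2⟩
    exact ⟨⟨y, hCH (mem_centralisingClass.1 hy1).2⟩, ⟨hy2, hy1⟩, rfl⟩

variable {M : Ideal AlgInt} [M.IsPrime]

/-- For `y` in a defect class with defect group `P` and `x` central in `P`, the central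
characters at `x y` are units. -/
theorem not_memLocalIdeal_centralChar_mul (hM : IsPModular p M) {B : Set (IrrCharacter G)}
    (hB : IsPBlock M B) {y : G} (hy : IsDefectClass M B y) {P : Subgroup G}
    (hP : IsClassDefectGroup p y P) {x : G} (hxP : x ∈ P) (hxc : ∀ w ∈ P, x * w = w * x)
    {χ : IrrCharacter G} (hχ : χ ∈ B) :
    ¬ MemLocalIdeal M (centralChar (χ : G → ℂ) (x * y)) := by
  classical
  have hyC : y ∈ Subgroup.centralizer (P : Set G) :=
    le_centralizer_singleton_iff.1 hP.le_centralizer
  have hxy : Commute x y := (hyC x hxP : x * y = y * x)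
  have hxC : x ∈ Subgroup.centralizer (P : Set G) := fun w hw => (hxc w hw).symm
  have hxyC : x * y ∈ Subgroup.centralizer (P : Set G) := Subgroup.mul_mem _ hxC hyC
  -- `P` is a defect group of the class of `x * y`
  have hreg := not_dvd_orderOf_of_isDefectClass hM hB hy
  have hP' : IsClassDefectGroup p (x * y) P := by
    obtain ⟨k, hk⟩ := hP.isPGroup ⟨x, hxP⟩
    obtain ⟨j, -, hj⟩ := (Nat.dvd_prime_pow hM.1).1 (orderOf_dvd_of_pow_eq_one hk)
    rw [← Subgroup.orderOf_coe] at hj
    have hyeq := (Element.eq_pPart hM.1 hxy rfl hj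
      ((Nat.Prime.coprime_iff_not_dvd hM.1).2 hreg).symm).2
    have hle : Subgroup.centralizer ({x * y} : Set G) ≤ Subgroup.centralizer ({y} : Set G) := by
      intro w hw
      refine mem_centralizer_singleton.2 ?_
      rw [hyeq]
      exact ((Element.commute_pComplPart (mem_centralizer_singleton.1 hw :
        Commute (x * y) w).symm).symm).eq
    obtain ⟨E, hE, hPE⟩ :=
      exists_isClassDefectGroup_ge hP.isPGroup (le_centralizer_singleton_iff.2 hxyC)
    have hcard : Nat.card E ≤ Nat.card P := by
      rw [hE.card_eq, hP.card_eq]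
      refine Nat.pow_le_pow_right hM.1.pos ?_
      exact (Nat.factorization_le_iff_dvd Nat.card_pos.ne' Nat.card_pos.ne').2
        (Subgroup.card_dvd_of_le hle) p
    exact (Subgroup.eq_of_le_of_card_ge hPE hcard).symm ▸ hE
  set H := P ⊔ Subgroup.centralizer (P : Set G) with hH
  haveI := Fintype.ofFinite H
  have hPH : P ≤ H := le_sup_left
  have hCH : Subgroup.centralizer (P : Set G) ≤ H := le_sup_right
  have hHN : H ≤ Subgroup.normalizer (P : Set G) := le_normalizer_sup_centralizer P
  have hBP : IsDefectGroup p M B P := isDefectGroup_iff.2 ⟨y, hy, hP⟩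
  obtain ⟨b, hb⟩ := exists_isInducedBlock_of_subConj hM hPH hCH hHN hB hBP (subConj_of_le le_rfl)
  obtain ⟨ξ, hξ⟩ := pBlock_nonempty hb.1
  haveI := charP_resF (M := M) hM
  haveI := normal_subgroupOf_of_le_normalizer (P := P) hHN
  have key : ∀ g : G, lam M (χ : G → ℂ) (classSum (ResF M) g) =
      lam M (ξ : H → ℂ) (brauerRestr P H (classSum (ResF M) g)) := fun g => by
    rw [← lam_restr_of_isInducedBlock hb hξ hχ (classSum_isCentralElt g),
      lam_restr_eq_lam_brauerRestr hM hP.isPGroup hPH hHN ξ.2 (classSum_isCentralElt g)]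
  -- counts
  set r₁ := (centralisingClass P (x * y)).card with hr₁
  set r₂ := (centralisingClass P y).card with hr₂
  obtain ⟨h10, h1v⟩ := factorization_card_centralisingClass hP'
  obtain ⟨h20, h2v⟩ := factorization_card_centralisingClass hP
  have hshift : y⁻¹ * (x * y) ∈ P := by
    rw [hxy.eq, ← mul_assoc, inv_mul_cancel, one_mul]; exact hxP
  have hdouble : r₂ * cosetCount P (x * y) y = r₁ * cosetCount P y y := by
    have e1 : ∀ h' ∈ centralisingClass P y,
        cosetCount P (x * y) h' = cosetCount P (x * y) y := by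
      intro h' hh'
      obtain ⟨n, hn, rfl⟩ :=
        hP.exists_normalizer_conj (mem_centralisingClass.1 hh').1 (mem_centralisingClass.1 hh').2
      exact cosetCount_conj P _ y hn
    have e2 : ∀ h ∈ centralisingClass P (x * y), cosetCount P y h = cosetCount P y y := by
      intro h hh
      obtain ⟨n, hn, rfl⟩ :=
        hP'.exists_normalizer_conj (mem_centralisingClass.1 hh).1 (mem_centralisingClass.1 hh).2
      rw [cosetCount_conj P _ _ hn, ← cosetCount_congr P y hshift]
    calc r₂ * cosetCount P (x * y) y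
        = ∑ h' ∈ centralisingClass P y, cosetCount P (x * y) h' := by
          rw [Finset.sum_congr rfl e1, Finset.sum_const, smul_eq_mul]
      _ = ∑ h ∈ centralisingClass P (x * y), cosetCount P y h := by
          simp only [cosetCount, Finset.card_filter]
          rw [Finset.sum_comm]
          refine Finset.sum_congr rfl fun h _ => Finset.sum_congr rfl fun h' _ => ?_
          exact if_congr ⟨fun hm => by simpa [mul_inv_rev] using P.inv_mem hm,
            fun hm => by simpa [mul_inv_rev] using P.inv_mem hm⟩ rfl rfl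
      _ = r₁ * cosetCount P y y := by
          rw [Finset.sum_congr rfl e2, Finset.sum_const, smul_eq_mul]
  set e := (Nat.card (Subgroup.normalizer (P : Set G))).factorization p -
    (Nat.card P).factorization p with he
  have h1d : p ^ e * (r₁ / p ^ e) = r₁ := by
    rw [hr₁, ← h1v]; exact Nat.ordProj_mul_ordCompl_eq_self _ p
  have h2d : p ^ e * (r₂ / p ^ e) = r₂ := by
    rw [hr₂, ← h2v]; exact Nat.ordProj_mul_ordCompl_eq_self _ p
  have h1n : ¬ p ∣ r₁ / p ^ e := by
    rw [hr₁, ← h1v]; exact Nat.not_dvd_ordCompl hM.1 h10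
  set u₁ := r₁ / p ^ e with hu₁
  set u₂ := r₂ / p ^ e with hu₂
  have hcount : ∀ t : G, u₂ * cosetCount P (x * y) t = u₁ * cosetCount P y t := by
    have hy0 : u₂ * cosetCount P (x * y) y = u₁ * cosetCount P y y := by
      refine Nat.eq_of_mul_eq_mul_left (pow_pos hM.1.pos e) ?_
      rw [← mul_assoc, ← mul_assoc, h1d, h2d]
      exact hdouble
    intro t
    by_cases hne : cosetCount P (x * y) t = 0 ∧ cosetCount P y t = 0
    · rw [hne.1, hne.2, mul_zero, mul_zero]
    obtain ⟨n, hn, hnt⟩ : ∃ n ∈ Subgroup.normalizer (P : Set G), t⁻¹ * (n * y * n⁻¹) ∈ P := by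
      rw [not_and_or] at hne
      rcases hne with hne | hne
      · obtain ⟨h, hh⟩ := Finset.card_ne_zero.1 hne
        obtain ⟨hh1, hh2⟩ := Finset.mem_filter.1 hh
        obtain ⟨n, hn, rfl⟩ :=
          hP'.exists_normalizer_conj (mem_centralisingClass.1 hh1).1 (mem_centralisingClass.1 hh1).2
        refine ⟨n, hn, ?_⟩
        have e3 : t⁻¹ * (n * y * n⁻¹) =
            t⁻¹ * (n * (x * y) * n⁻¹) * (n * (y⁻¹ * (x * y)) * n⁻¹)⁻¹ := by group
        rw [e3]
        exact P.mul_mem hh2 (P.inv_mem ((Subgroup.mem_normalizer_iff.1 hn _).1 hshift))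
      · obtain ⟨h, hh⟩ := Finset.card_ne_zero.1 hne
        obtain ⟨hh1, hh2⟩ := Finset.mem_filter.1 hh
        obtain ⟨n, hn, rfl⟩ :=
          hP.exists_normalizer_conj (mem_centralisingClass.1 hh1).1 (mem_centralisingClass.1 hh1).2
        exact ⟨n, hn, hh2⟩
    rw [cosetCount_congr P _ hnt, cosetCount_congr P _ hnt, cosetCount_conj P _ _ hn,
      cosetCount_conj P _ _ hn, hy0]
  -- compare the two Brauer images
  have hc₁ := brauerRestr_isCentralElt (P := P) hHN (classSum_isCentralElt (R := ResF M) (x * y))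
  have hc₂ := brauerRestr_isCentralElt (P := P) hHN (classSum_isCentralElt (R := ResF M) y)
  have hd := (hc₁.smul (u₂ : ResF M)).sub (hc₂.smul (u₁ : ResF M))
  have hnil := isNilpotent_of_coset_sum_eq_zero (P := P.subgroupOf H) hP.isPGroup.comap_subtype
    (z := (u₂ : ResF M) • brauerRestr P H (classSum (ResF M) (x * y)) -
      (u₁ : ResF M) • brauerRestr P H (classSum (ResF M) y)) (fun t => by
    simp only [coeff_sub, Finsupp.sub_apply, coeff_smul_apply, smul_eq_mul,
      Finset.sum_sub_distrib, ← Finset.mul_sum, sum_coset_brauerRestr hCH]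
    rw [← Nat.cast_mul, ← Nat.cast_mul, hcount, sub_self])
  have hlam := lam_eq_zero_of_isNilpotent ξ.2 hd hnil
  rw [lam_sub ξ.2 (hc₁.smul _) (hc₂.smul _), lam_smul ξ.2, lam_smul ξ.2, ← key, ← key,
    sub_eq_zero] at hlam
  intro hmem
  have h0 : lam M (χ : G → ℂ) (classSum (ResF M) (x * y)) = 0 := by
    rw [lam_classSum χ.2, redC_eq_zero_iff (centralChar_memLocalRing χ.2 _)]
    exact hmem
  rw [h0, mul_zero] at hlam
  rcases mul_eq_zero.1 hlam.symm with h | h
  · exact h1n ((red_natCast_eq_zero_iff hM u₁).1 h)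
  · exact (lam_classSum_ne_zero_iff χ.2 y).2 (hy.2.2 χ hχ) h

/-- The centre of a defect group of an induced block is conjugate into the centre below. -/
theorem exists_conj_centre_of_induced (hM : IsPModular p M) {H : Subgroup G}
    {b : Set (IrrCharacter H)} {B : Set (IrrCharacter G)} (hind : IsInducedBlock M H b B)
    {D : Subgroup H} (hD : IsDefectGroup p M b D) {P : Subgroup G} (hP : IsDefectGroup p M B P)
    {x : G} (hx : x ∈ P) (hxc : ∀ w ∈ P, x * w = w * x) :
    ∃ g : G, g * x * g⁻¹ ∈ D.map H.subtype ∧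
      ∀ w ∈ D.map H.subtype, g * x * g⁻¹ * w = w * (g * x * g⁻¹) := by
  obtain ⟨y, hy, hyP⟩ := isDefectGroup_iff.1 hP
  obtain ⟨χ, hχ⟩ := pBlock_nonempty hind.2.1
  refine exists_conj_mem_center hM hind hD (y := x * y) hχ ?_
    (not_memLocalIdeal_centralChar_mul hM hind.2.1 hy hyP hx hxc hχ)
  obtain ⟨k, hk⟩ := hyP.isPGroup ⟨x, hx⟩
  obtain ⟨j, -, hj⟩ := (Nat.dvd_prime_pow hM.1).1 (orderOf_dvd_of_pow_eq_one hk)
  rw [← Subgroup.orderOf_coe] at hj
  have hxy : Commute x y := (le_centralizer_singleton_iff.1 hyP.le_centralizer x hx : x * y = y * x)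
  exact ((Element.eq_pPart hM.1 hxy rfl hj ((Nat.Prime.coprime_iff_not_dvd hM.1).2
    (not_dvd_orderOf_of_isDefectClass hM hind.2.1 hy)).symm).1).symm

end Cfsg.Agent.Block
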