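import Cfsg.Agent.Block.DefectGroup
import Cfsg.Agent.PSolv.HallHigman

/-!
# Groups with a single `p`-block
-/

namespace Cfsg.Agent.Block

open Cfsg MonoidAlgebra

variable {G : Type*} [Group G] [Fintype G] {p : ℕ} {M : Ideal AlgInt} [M.IsPrime]

/-- A class inside a normal `p`-subgroup has central character congruent to its size. -/
theorem lam_classSum_of_mem_normal_pGroup (hM : IsPModular p M) {P : Subgroup G} [P.Normal]
    (hP : IsPGroup p P) {χ : G → ℂ} (hχ : IsIrrCharacter G χ) {g : G} (hg : g ∈ P) :
    lam M χ (classSum (ResF M) g) =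
      ((Subgroup.centralizer ({g} : Set G)).index : ResF M) := by
  classical
  haveI : Fact p.Prime := ⟨hM.1⟩
  haveI := charP_resF (M := M) hM
  set c : ResF M := ((Subgroup.centralizer ({g} : Set G)).index : ResF M) with hc
  have hd := (classSum_isCentralElt (R := ResF M) g).sub (IsCentralElt.one.smul c)
  have hsub : ∀ x, IsConj g x → x ∈ P := by
    intro x hx
    obtain ⟨n, rfl⟩ := isConj_iff.1 hx
    exact Subgroup.Normal.conj_mem inferInstance _ hg n
  have hnil : IsNilpotent (classSum (ResF M) g - c • 1) := by
    refine isNilpotent_of_coset_sum_eq_zero hP fun t => ?_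
    simp only [coeff_sub, Finsupp.sub_apply, coeff_smul_apply, smul_eq_mul, coeff_classSum,
      coeff_one_eq, Finset.sum_sub_distrib, ← Finset.mul_sum, Finset.sum_boole, Finset.filter_filter]
    by_cases ht : t ∈ P
    · have e1 : (Finset.univ.filter fun x => t⁻¹ * x ∈ P ∧ IsConj g x) =
          Finset.univ.filter fun x => IsConj g x :=
        Finset.filter_congr fun x _ =>
          and_iff_right_of_imp fun hx => P.mul_mem (P.inv_mem ht) (hsub x hx)
      have e2 : (Finset.univ.filter fun x : G => t⁻¹ * x ∈ P ∧ x = 1) = {1} := by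
        ext x
        simp only [Finset.mem_filter, Finset.mem_univ, true_and, Finset.mem_singleton,
          and_iff_right_iff_imp]
        rintro rfl
        simpa using P.inv_mem ht
      have e3 : (Finset.univ.filter fun x => IsConj g x).card =
          (Subgroup.centralizer ({g} : Set G)).index := by
        convert Char.card_isConj_eq_index g
      rw [e1, e2, e3, Finset.card_singleton, Nat.cast_one, mul_one, hc,
        sub_self]
    · have e1 : (Finset.univ.filter fun x => t⁻¹ * x ∈ P ∧ IsConj g x) = ∅ := by
        refine Finset.filter_eq_empty_iff.2 fun x _ hx => ht ?_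
        simpa using P.mul_mem (hsub x hx.2) (P.inv_mem hx.1)
      have e2 : (Finset.univ.filter fun x : G => t⁻¹ * x ∈ P ∧ x = 1) = ∅ := by
        refine Finset.filter_eq_empty_iff.2 fun x _ hx => ht ?_
        simpa [hx.2] using P.inv_mem hx.1
      rw [e1, e2]
      simp
  have h := lam_eq_zero_of_isNilpotent hχ hd hnil
  rw [lam_sub hχ (classSum_isCentralElt g) (IsCentralElt.one.smul c), lam_smul hχ, lam_one hχ,
    mul_one, sub_eq_zero] at h
  exact h

/-- If a normal `p`-subgroup contains its centraliser, there is only one block. -/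
theorem sameBlock_of_centralizer_le_normal_pGroup (hM : IsPModular p M) {P : Subgroup G}
    [P.Normal] (hP : IsPGroup p P) (hCP : Subgroup.centralizer (P : Set G) ≤ P)
    (χ ψ : IrrCharacter G) : SameBlock M (χ : G → ℂ) (ψ : G → ℂ) := by
  haveI : Fact p.Prime := ⟨hM.1⟩
  refine (sameBlock_iff_redC χ.2 ψ.2).2 fun g => ?_
  by_cases hg : g ∈ Subgroup.centralizer (P : Set G)
  · rw [← lam_classSum χ.2, ← lam_classSum ψ.2,
      lam_classSum_of_mem_normal_pGroup hM hP χ.2 (hCP hg),
      lam_classSum_of_mem_normal_pGroup hM hP ψ.2 (hCP hg)]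
  · rw [(redC_eq_zero_iff (centralChar_memLocalRing χ.2 g)).2
        (centralChar_mem_of_class_avoids_centralizer hM hP χ.2 hg),
      (redC_eq_zero_iff (centralChar_memLocalRing ψ.2 g)).2
        (centralChar_mem_of_class_avoids_centralizer hM hP ψ.2 hg)]

end Cfsg.Agent.Block
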