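import Cfsg.Agent.Block.FirstMain
import Cfsg.Agent.Block.SecondMain
import Cfsg.Agent.Block.SingleBlock

/-!
# Characters vanishing on all elements of order `p`

If `χ` vanishes on every element of order `p`, the sum `S` of the elements of order `p` is killed
by the central character of `χ`.  Its Brauer image at a defect group `D` is, up to classes on which
every character of a root block vanishes, the sum of the nontrivial elements of `Ω₁(Z(D))`, whose
value is `-1` unless `D` is trivial.
-/

namespace Cfsg.Agent.Block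

open Cfsg MonoidAlgebra

variable {G : Type*} [Group G] [Fintype G] {p : ℕ} {M : Ideal AlgInt} [M.IsPrime]

theorem lam_eq_sum_coeff {χ : G → ℂ} (hχ : IsIrrCharacter G χ) {a : MonoidAlgebra (ResF M) G}
    (ha : IsCentralElt a) [Fintype (ConjClasses G)] :
    lam M χ a = ∑ c : ConjClasses G, a.coeff c.out * lam M χ (classSum (ResF M) c.out) := by
  conv_lhs => rw [isCentralElt_eq_sum_classSum ha]
  rw [lam_sum hχ _ (fun c _ => (classSum_isCentralElt c.out).smul _)]
  exact Finset.sum_congr rfl fun c _ => lam_smul hχ _ _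

/-- A central element supported on classes killed by `χ` is killed by `χ`. -/
theorem lam_eq_zero_of_support {χ : G → ℂ} (hχ : IsIrrCharacter G χ)
    {a : MonoidAlgebra (ResF M) G} (ha : IsCentralElt a)
    (h : ∀ g, a.coeff g ≠ 0 → χ g = 0) : lam M χ a = 0 := by
  classical
  haveI : Finite (ConjClasses G) := Finite.of_surjective _ ConjClasses.mk_surjective
  haveI := Fintype.ofFinite (ConjClasses G)
  rw [lam_eq_sum_coeff hχ ha]
  refine Finset.sum_eq_zero fun c _ => ?_
  by_cases hc : a.coeff c.out = 0
  · rw [hc, zero_mul]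
  · rw [lam_classSum hχ, centralChar, h _ hc, mul_zero, zero_div,
      (redC_eq_zero_iff ((localRing M).zero_mem)).2 memLocalIdeal_zero, mul_zero]

/-- The number of elements of order `p` in the centre of a nontrivial `p`-group is `-1` mod `p`. -/
theorem dvd_card_orderOf_eq_add_one [Fact p.Prime] {D : Subgroup G} (hD : IsPGroup p D)
    (hne : D ≠ ⊥) [DecidablePred fun x : G =>
      orderOf x = p ∧ x ∈ D ∧ x ∈ Subgroup.centralizer (D : Set G)] :
    p ∣ (Finset.univ.filter fun x : G =>
      orderOf x = p ∧ x ∈ D ∧ x ∈ Subgroup.centralizer (D : Set G)).card + 1 := by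
  classical
  have hp := (Fact.out : p.Prime)
  let W : Subgroup G :=
    { carrier := {x | x ∈ D ∧ x ∈ Subgroup.centralizer (D : Set G) ∧ x ^ p = 1}
      one_mem' := ⟨D.one_mem, Subgroup.one_mem _, one_pow _⟩
      mul_mem' := by
        rintro x y ⟨hx1, hx2, hx3⟩ ⟨hy1, hy2, hy3⟩
        refine ⟨D.mul_mem hx1 hy1, Subgroup.mul_mem _ hx2 hy2, ?_⟩
        have hc : Commute x y := hy2 x hx1
        rw [hc.mul_pow, hx3, hy3, one_mul]
      inv_mem' := by
        rintro x ⟨hx1, hx2, hx3⟩
        exact ⟨D.inv_mem hx1, Subgroup.inv_mem _ hx2, by rw [inv_pow, hx3, inv_one]⟩ }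
  haveI : Nontrivial D := (Subgroup.nontrivial_iff_ne_bot D).2 hne
  haveI := hD.center_nontrivial
  have hpc : p ∣ Nat.card (Subgroup.center D) := by
    obtain ⟨n, hn⟩ := IsPGroup.iff_card.1 (hD.to_subgroup (Subgroup.center D))
    rw [hn]
    refine dvd_pow_self p fun h0 => ?_
    rw [h0, pow_zero] at hn
    exact absurd hn (Finite.one_lt_card (α := Subgroup.center D)).ne'
  obtain ⟨z, hz⟩ := exists_prime_orderOf_dvd_card' p hpc
  have hzW : ((z : D) : G) ∈ W := by
    refine ⟨(z : D).2, fun w hw => ?_, ?_⟩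
    · exact congrArg Subtype.val (Subgroup.mem_center_iff.1 z.2 ⟨w, hw⟩)
    · rw [← orderOf_dvd_iff_pow_eq_one, Subgroup.orderOf_coe, Subgroup.orderOf_coe, hz]
  have hWD : W ≤ D := fun x hx => hx.1
  obtain ⟨n, hn⟩ := IsPGroup.iff_card.1 (hD.to_le hWD)
  have hW : Nat.card W = (Finset.univ.filter fun x : G =>
      orderOf x = p ∧ x ∈ D ∧ x ∈ Subgroup.centralizer (D : Set G)).card + 1 := by
    have h1 : (Finset.univ.filter fun x : G => x ∈ W) = insert 1 (Finset.univ.filter fun x : G =>
        orderOf x = p ∧ x ∈ D ∧ x ∈ Subgroup.centralizer (D : Set G)) := by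
      ext x
      simp only [Finset.mem_filter, Finset.mem_univ, true_and, Finset.mem_insert]
      constructor
      · rintro ⟨hx1, hx2, hx3⟩
        rcases eq_or_ne x 1 with h | h
        · exact Or.inl h
        · exact Or.inr ⟨orderOf_eq_prime hx3 h, hx1, hx2⟩
      · rintro (rfl | ⟨hx3, hx1, hx2⟩)
        · exact W.one_mem
        · exact ⟨hx1, hx2, hx3 ▸ pow_orderOf_eq_one x⟩
    rw [← Finset.card_insert_of_notMem (s := Finset.univ.filter fun x : G =>
      orderOf x = p ∧ x ∈ D ∧ x ∈ Subgroup.centralizer (D : Set G)) (a := 1)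
      (by simp [hp.ne_one.symm]), ← h1, Nat.card_eq_fintype_card, Fintype.card_subtype]
  rw [← hW, hn]
  refine dvd_pow_self p fun h0 => ?_
  have hbot : W = ⊥ := Subgroup.card_eq_one.1 (by rw [hn, h0, pow_zero])
  rw [hbot, Subgroup.mem_bot] at hzW
  have h1 := hz
  rw [← Subgroup.orderOf_coe, ← Subgroup.orderOf_coe, hzW, orderOf_one] at h1
  exact hp.ne_one h1.symm

/-- A block containing a character that vanishes on all elements of order `p` has trivial defect
groups. -/
theorem defectGroup_eq_bot_of_vanish (hM : IsPModular p M) [Fact p.Prime]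
    {χ : IrrCharacter G} (hvan : ∀ g : G, orderOf g = p → (χ : G → ℂ) g = 0) {D : Subgroup G}
    (hD : IsDefectGroup p M (blockOf M (χ : G → ℂ)) D) : D = ⊥ := by
  classical
  by_contra hne
  haveI := charP_resF (M := M) hM
  have hDp := isDefectGroup_isPGroup hD
  set H := D ⊔ Subgroup.centralizer (D : Set G) with hH
  haveI := Fintype.ofFinite H
  have hDH : D ≤ H := le_sup_left
  have hCH : Subgroup.centralizer (D : Set G) ≤ H := le_sup_right
  have hHN : H ≤ Subgroup.normalizer (D : Set G) := le_normalizer_sup_centralizer D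
  haveI := normal_subgroupOf_of_le_normalizer hHN
  have hB : IsPBlock M (blockOf M (χ : G → ℂ)) := isPBlock_blockOf χ
  obtain ⟨b, hb⟩ := exists_isInducedBlock_of_subConj hM hDH hCH hHN hB hD (subConj_of_le le_rfl)
  obtain ⟨ξ, hξ⟩ := pBlock_nonempty hb.1
  -- the sum of the elements of order `p`
  let S : MonoidAlgebra (ResF M) G := ofFn fun g => if orderOf g = p then 1 else 0
  have hS : IsCentralElt S := fun g x => by
    simp only [S, coeff_ofFn, ← MulAut.conj_apply, (MulAut.conj x).orderOf_eq g]
  have hlam0 : lam M (χ : G → ℂ) S = 0 := lam_eq_zero_of_support χ.2 hS fun g hg => hvan g (by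
    by_contra h; exact hg (by simp only [S, coeff_ofFn, if_neg h]))
  rw [← lam_restr_of_isInducedBlock hb hξ (mem_blockOf_self χ) hS,
    lam_restr_eq_lam_brauerRestr hM hDp hDH hHN ξ.2 hS] at hlam0
  -- the part inside `D`
  let T : MonoidAlgebra (ResF M) H := ofFn fun h =>
    if orderOf (h : G) = p ∧ (h : G) ∈ D ∧ (h : G) ∈ Subgroup.centralizer (D : Set G) then 1 else 0
  have hT : IsCentralElt T := fun h x => by
    simp only [T, coeff_ofFn, Subgroup.coe_mul, Subgroup.coe_inv]
    have e1 : orderOf ((x : G) * h * (x : G)⁻¹) = orderOf (h : G) :=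
      (MulAut.conj (x : G)).orderOf_eq (h : G)
    exact if_congr (by rw [e1, conj_mem_centralizer_iff (hHN x.2),
      ← Subgroup.mem_normalizer_iff.1 (hHN x.2)]) rfl rfl
  have hbr := brauerRestr_isCentralElt (P := D) hHN hS
  have hrest : lam M (ξ : H → ℂ) (brauerRestr D H S - T) = 0 := by
    refine lam_eq_zero_of_support ξ.2 (hbr.sub hT) fun h hh => ?_
    simp only [brauerRestr, coeff_sub, Finsupp.sub_apply, coeff_restr, T, coeff_ofFn] at hh
    by_cases hC : (h : G) ∈ Subgroup.centralizer (D : Set G)
    · rw [coeff_trunc_of_mem _ hC] at hh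
      simp only [S, coeff_ofFn] at hh
      by_cases ho : orderOf (h : G) = p
      · by_cases hd : (h : G) ∈ D
        · rw [if_pos ho, if_pos ⟨ho, hd, hC⟩, sub_self] at hh
          exact absurd rfl hh
        · refine char_eq_zero_of_pPart_notMem hM hb.1 hξ fun E hE => ?_
          rw [defectGroup_root_eq hM hDH hHN hb hD hE,
            (Element.pPart_eq_self hM.1 (g := h) (k := 1)
              (by rw [pow_one, ← Subgroup.orderOf_coe, ho])).1,
            Subgroup.mem_subgroupOf]
          exact hd
      · rw [if_neg ho, if_neg fun h' => ho h'.1, sub_self] at hh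
        exact absurd rfl hh
    · rw [coeff_trunc_of_notMem _ hC, if_neg fun h' => hC h'.2.2, sub_self] at hh
      exact absurd rfl hh
  -- the value on the part inside `D`
  set n := (Finset.univ.filter fun x : G =>
    orderOf x = p ∧ x ∈ D ∧ x ∈ Subgroup.centralizer (D : Set G)).card with hn
  have hTn : lam M (ξ : H → ℂ) T = (n : ResF M) := by
    have hnil : IsNilpotent (T - (n : ResF M) • 1) := by
      refine isNilpotent_of_coset_sum_eq_zero (P := D.subgroupOf H) hDp.comap_subtype fun t => ?_
      simp only [coeff_sub, Finsupp.sub_apply, coeff_smul_apply, smul_eq_mul, T, coeff_ofFn,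
        coeff_one_eq, Finset.sum_sub_distrib, ← Finset.mul_sum, Finset.sum_boole,
        Finset.filter_filter, Subgroup.mem_subgroupOf, Subgroup.coe_mul, Subgroup.coe_inv]
      by_cases ht : (t : G) ∈ D
      · have e1 : (Finset.univ.filter fun x : H => (t : G)⁻¹ * x ∈ D ∧ (orderOf (x : G) = p ∧
            (x : G) ∈ D ∧ (x : G) ∈ Subgroup.centralizer (D : Set G))).card = n := by
          rw [hn, ← Finset.card_map (Function.Embedding.subtype fun x : G => x ∈ H)]
          congr 1
          ext y
          simp only [Finset.mem_map, Finset.mem_filter, Finset.mem_univ, true_and,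
            Function.Embedding.coe_subtype]
          constructor
          · rintro ⟨x, ⟨-, hx⟩, rfl⟩; exact hx
          · intro hy; exact ⟨⟨y, hDH hy.2.1⟩, ⟨D.mul_mem (D.inv_mem ht) hy.2.1, hy⟩, rfl⟩
        have e2 : (Finset.univ.filter fun x : H => (t : G)⁻¹ * x ∈ D ∧ x = 1) = {1} := by
          ext x
          simp only [Finset.mem_filter, Finset.mem_univ, true_and, Finset.mem_singleton,
            and_iff_right_iff_imp]
          rintro rfl
          simpa using D.inv_mem ht
        rw [e1, e2, Finset.card_singleton, Nat.cast_one, mul_one, sub_self]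
      · have e1 : (Finset.univ.filter fun x : H => (t : G)⁻¹ * x ∈ D ∧ (orderOf (x : G) = p ∧
            (x : G) ∈ D ∧ (x : G) ∈ Subgroup.centralizer (D : Set G))) = ∅ := by
          refine Finset.filter_eq_empty_iff.2 fun x _ hx => ht ?_
          simpa using D.mul_mem hx.2.2.1 (D.inv_mem hx.1)
        have e2 : (Finset.univ.filter fun x : H => (t : G)⁻¹ * x ∈ D ∧ x = 1) = ∅ := by
          refine Finset.filter_eq_empty_iff.2 fun x _ hx => ht ?_
          simpa [hx.2] using D.inv_mem hx.1
        rw [e1, e2]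
        simp
    have h := lam_eq_zero_of_isNilpotent ξ.2 (hT.sub (IsCentralElt.one.smul _)) hnil
    rwa [lam_sub ξ.2 hT (IsCentralElt.one.smul _), lam_smul ξ.2, lam_one ξ.2, mul_one,
      sub_eq_zero] at h
  rw [lam_sub ξ.2 hbr hT, hlam0, hTn, zero_sub, neg_eq_zero] at hrest
  have h1 : ((n + 1 : ℕ) : ResF M) = 0 :=
    (CharP.cast_eq_zero_iff (ResF M) p _).2 (dvd_card_orderOf_eq_add_one hDp hne)
  rw [Nat.cast_add, hrest, zero_add, Nat.cast_one] at h1
  exact one_ne_zero h1

/-- Knörr: a character vanishing on all elements of order `p` has `p`-defect zero. -/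
theorem factorization_degree_eq_of_vanish (hM : IsPModular p M) [Fact p.Prime]
    {χ : IrrCharacter G} (hvan : ∀ g : G, orderOf g = p → (χ : G → ℂ) g = 0) :
    (charDegree (χ : G → ℂ)).factorization p = (Nat.card G).factorization p := by
  have hB : IsPBlock M (blockOf M (χ : G → ℂ)) := isPBlock_blockOf χ
  obtain ⟨D, hD⟩ := exists_isDefectGroup (p := p) hB
  have h := card_isDefectGroup hM hB hD
  rw [defectGroup_eq_bot_of_vanish hM hvan hD, Subgroup.card_bot, eq_comm, Nat.pow_eq_one] at h
  have h0 : blockDefect p (blockOf M (χ : G → ℂ)) = 0 :=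
    h.resolve_left (Fact.out : p.Prime).ne_one
  obtain ⟨-, hpos, hdvd⟩ := irr_one_eq_charDegree χ.2
  have hle := (Nat.factorization_le_iff_dvd hpos.ne' Nat.card_pos.ne').2 hdvd p
  have hinf : sInf ((fun ψ : IrrCharacter G => (charDegree (ψ : G → ℂ)).factorization p) ''
      blockOf M (χ : G → ℂ)) ≤ (charDegree (χ : G → ℂ)).factorization p :=
    Nat.sInf_le ⟨χ, mem_blockOf_self χ, rfl⟩
  rw [blockDefect] at h0
  omega

end Cfsg.Agent.Block
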