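import Cfsg.Agent.Brauer.RegElement
import Cfsg.Agent.BlockVal.HeightZero
import Cfsg.Agent.Block.Induced
import Cfsg.Agent.Block.Degrees

/-!
# Okuyama's criterion

For `χ` of height zero in `B` the element `∑ χ (x⁻¹) x` over the `p`-regular `x` has central
character outside the local ideal exactly at the members of `B`.  Its restriction to `H` is the
corresponding element of the restricted character.
-/

namespace Cfsg.Agent.Block

open Cfsg MonoidAlgebra
open Cfsg.Agent.Brauer (regSum regElt)

universe u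

variable {G : Type u} [Group G] [Fintype G] {p : ℕ} {M : Ideal AlgInt} [M.IsPrime]

/-- The element attached to a height zero character detects its block. -/
theorem omega_regElt_mem_iff (hM : IsPModular p M) {B : Set (IrrCharacter G)} (hB : IsPBlock M B)
    {χ : IrrCharacter G} (hχ : χ ∈ B) (h0 : blockHeight p B (χ : G → ℂ) = 0) (ψ : IrrCharacter G) :
    MemLocalIdeal M (omega (ψ : G → ℂ) (toC M (regElt M p (χ : G → ℂ)))) ↔ ψ ∉ B := by
  haveI : Fact p.Prime := ⟨hM.1⟩
  rw [Brauer.omega_toC_regElt (Char.isCharacter_of_irr χ.2)]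
  constructor
  · intro hmem hψ
    obtain ⟨n, hn, -⟩ := BlockVal.cReg_int (p := p) χ ψ
    refine BlockVal.not_dvd_succ_of_height_zero hM hB hχ h0 hψ hn ?_
    rw [← BlockVal.memLocalIdeal_int_div_nat_iff hM n (irr_one_eq_charDegree ψ.2).2.1.ne',
      ← (irr_one_eq_charDegree ψ.2).1, ← hn, BlockVal.cReg_comm χ ψ, BlockVal.cReg]
    convert memLocalIdeal_mul_left (BlockVal.pPart_div_card_memLocalRing (G := G) hM) hmem using 1
    ring
  · intro hψ
    rw [← Brauer.regSum_conj,
      Brauer.regSum_eq_zero_of_integral hM B (blockCoeff_memLocalRing hB) hχ hψ, map_zero, zero_div]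
    exact memLocalIdeal_zero

theorem restr_regElt (H : Subgroup G) [Fintype H] {χ : G → ℂ} (hχ : IsCharacter G χ)
    (hres : IsCharacter H fun h : H => χ h) :
    restr H (regElt M p χ) = regElt M p (fun h : H => χ h) := by
  classical
  apply groupAlgebra_ext
  intro h
  apply Subtype.ext
  rw [coeff_restr, Brauer.coeff_regElt hχ, Brauer.coeff_regElt hres, Subgroup.orderOf_coe,
    Subgroup.coe_inv]

theorem isInducedBlock_iff_eq_of_height_zero (hM : IsPModular p M) (H : Subgroup G) [Fintype H]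
    {χ : IrrCharacter G} (hres : IsIrrCharacter H fun h : H => (χ : G → ℂ) h)
    (hχ0 : blockHeight p (blockOf M (χ : G → ℂ)) (χ : G → ℂ) = 0)
    (hψ0 : blockHeight p (blockOf M (fun h : H => (χ : G → ℂ) h))
      (fun h : H => (χ : G → ℂ) h) = 0)
    {e : Set (IrrCharacter H)} {B' : Set (IrrCharacter G)} (he : IsInducedBlock M H e B') :
    IsInducedBlock M H e (blockOf M (χ : G → ℂ)) ↔
      e = blockOf M (fun h : H => (χ : G → ℂ) h) := by
  set ψ : IrrCharacter H := ⟨_, hres⟩ with hψdef
  have hb : IsPBlock M (blockOf M (ψ : H → ℂ)) := isPBlock_blockOf ψ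
  have hB : IsPBlock M (blockOf M (χ : G → ℂ)) := isPBlock_blockOf χ
  obtain ⟨χ', hχ'⟩ := pBlock_nonempty he.2.1
  have hz := Brauer.isCentralElt_regElt (M := M) (p := p) (Char.isCharacter_of_irr χ.2)
  have key : ∀ η ∈ e,
      (η ∈ blockOf M (ψ : H → ℂ) ↔ χ' ∈ blockOf M (χ : G → ℂ)) := by
    intro η hη
    have h1 := Brauer.omega_restr_sub_mem_of_induced H he hη hχ' hz
    rw [restr_regElt H (Char.isCharacter_of_irr χ.2) (Char.isCharacter_of_irr hres)] at h1
    rw [← not_iff_not, ← omega_regElt_mem_iff hM hb (mem_blockOf_self ψ) hψ0,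
      ← omega_regElt_mem_iff hM hB (mem_blockOf_self χ) hχ0]
    exact ⟨fun h => by simpa [hψdef] using memLocalIdeal_sub h h1,
      fun h => by simpa [hψdef] using memLocalIdeal_add h1 h⟩
  constructor
  · intro h
    have hBB := pBlock_eq_of_mem he.2.1 hB hχ'
    obtain ⟨η, hη⟩ := pBlock_nonempty he.1
    have hB' : B' = blockOf M (χ : G → ℂ) := isInducedBlock_unique he h
    exact pBlock_eq_of_mem he.1 hb hη ((key η hη).2 (hB' ▸ hχ'))
  · intro h
    have hψe : ψ ∈ e := h ▸ mem_blockOf_self ψ
    exact pBlock_eq_of_mem he.2.1 hB hχ' ((key ψ hψe).1 (mem_blockOf_self ψ)) ▸ he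

end Cfsg.Agent.Block
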