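import Cfsg.Agent.Block.Idempotent
import Cfsg.Agent.Brauer.WeakOrth
import Cfsg.Agent.Brauer.Projective

/-!
# Blocks do not depend on the prime ideal above `p`
-/

namespace Cfsg.Agent.Block

open Cfsg
open scoped ComplexConjugate

variable {G : Type*} [Group G] [Fintype G] {p : ℕ} {M M' : Ideal AlgInt}

theorem pPart_mul_ordCompl_card (p : ℕ) :
    ((p ^ (Nat.card G).factorization p : ℕ) : ℂ) *
      ((Nat.card G / p ^ (Nat.card G).factorization p : ℕ) : ℂ) = (Nat.card G : ℂ) := by
  rw [← Nat.cast_mul, Nat.ordProj_mul_ordCompl_eq_self]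

/-- A set whose idempotent is integral at one prime over `p` is integral at every prime over
`p`. -/
theorem blockCoeff_memLocalRing_of_integral (hM : IsPModular p M) (hM' : IsPModular p M')
    {A : Set (IrrCharacter G)} (hint : ∀ g : G, MemLocalRing M' (blockCoeff A g)) (g : G) :
    MemLocalRing M (blockCoeff A g) := by
  classical
  haveI : M.IsPrime := hM.2.1.isPrime
  by_cases hg : p ∣ orderOf g
  · rw [Brauer.blockCoeff_eq_zero_of_integral hM' A hint hg]
    exact (localRing M).zero_mem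
  let f : G → ℂ := fun x => ∑ ξ : IrrCharacter G with ξ ∈ A,
    conj ((ξ : G → ℂ) g) * (ξ : G → ℂ) x
  have hf : IsClassFunction G f := fun x y =>
    Finset.sum_congr rfl fun ξ _ => by rw [Char.irr_isClassFunction ξ.2 x y]
  have hfχ : ∀ χ : IrrCharacter G, MemLocalRing M (classInner f (χ : G → ℂ)) := by
    intro χ
    have h1 : f = ∑ ξ : IrrCharacter G,
        (if ξ ∈ A then conj ((ξ : G → ℂ) g) else 0) • (ξ : G → ℂ) := by
      funext x
      simp only [f, Finset.sum_filter, Finset.sum_apply, Pi.smul_apply, smul_eq_mul]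
      exact Finset.sum_congr rfl fun ξ _ => by split_ifs <;> simp
    rw [h1, Char.classInner_sum_smul_irr]
    split_ifs
    · rw [← Char.irr_inv χ.2]
      exact char_memLocalRing χ.2 g⁻¹
    · exact (localRing M).zero_mem
  have hvan : ∀ x : G, p ∣ orderOf x → f x = 0 := by
    intro x hx
    have h1 := congrArg (conj : ℂ → ℂ) (Brauer.weakOrth_of_integral hM' A hint hg hx)
    rw [map_zero, finsum_mem_eq_toFinset_sum, map_sum] at h1
    rw [← h1]
    refine Finset.sum_congr (by ext; simp) fun ξ _ => ?_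
    rw [map_mul, Complex.conj_conj]
  have h1 := Brauer.memLocalRing_div_pPart_of_vanish_singular hM f hf hfχ hvan
  have h2 : f 1 = (Nat.card G : ℂ) * blockCoeff A g := by
    rw [blockCoeff_eq_sum, mul_inv_cancel_left₀ (Nat.cast_ne_zero.2 Nat.card_pos.ne')]
    exact Finset.sum_congr rfl fun ξ _ => mul_comm _ _
  have hp0 : ((p ^ (Nat.card G).factorization p : ℕ) : ℂ) ≠ 0 :=
    Nat.cast_ne_zero.2 (pow_ne_zero _ hM.1.ne_zero)
  have hn : ¬ p ∣ Nat.card G / p ^ (Nat.card G).factorization p :=
    Nat.not_dvd_ordCompl hM.1 Nat.card_pos.ne'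
  have hn0 : ((Nat.card G / p ^ (Nat.card G).factorization p : ℕ) : ℂ) ≠ 0 :=
    Nat.cast_ne_zero.2 fun h => hn (by rw [h]; exact dvd_zero p)
  have h3 : f 1 / ((p ^ (Nat.card G).factorization p : ℕ) : ℂ) *
      ((Nat.card G / p ^ (Nat.card G).factorization p : ℕ) : ℂ)⁻¹ = blockCoeff A g := by
    rw [h2, ← pPart_mul_ordCompl_card (G := G) p]
    field_simp
  rw [← h3]
  exact (localRing M).mul_mem h1 (memLocalRing_natCast_inv hM hn)

/-- `SameBlock` does not depend on the prime over `p`. -/
theorem sameBlock_of_sameBlock (hM : IsPModular p M) (hM' : IsPModular p M')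
    {χ ψ : IrrCharacter G} (h : SameBlock M (χ : G → ℂ) (ψ : G → ℂ)) :
    SameBlock M' (χ : G → ℂ) (ψ : G → ℂ) := by
  haveI : M.IsPrime := hM.2.1.isPrime
  haveI : M'.IsPrime := hM'.2.1.isPrime
  have hint := blockCoeff_memLocalRing_of_integral hM hM'
    (blockCoeff_memLocalRing (M := M') (isPBlock_blockOf χ))
  exact blockOf_subset_of_memLocalRing hint (mem_blockOf_self χ) h

theorem blockOf_eq_blockOf (hM : IsPModular p M) (hM' : IsPModular p M') (χ : IrrCharacter G) :
    blockOf M (χ : G → ℂ) = blockOf M' (χ : G → ℂ) :=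
  Set.ext fun _ => ⟨sameBlock_of_sameBlock hM hM', sameBlock_of_sameBlock hM' hM⟩

end Cfsg.Agent.Block
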